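-- Team project SUG (S2412), block [Q2]: package [Q2-ADJ] (helper37).
import Mathlib
import Cfsg.Agent.Lib.Helper6.SUG.Q2Defs

/-!
# S2412 (SUG), block [Q2]: the vectors `e_j + e_{j+1}` (indices mod `n`) are centres

`e_2 + e_3` is a non-zero isotropic vector of `E_4`; the cyclic shift `c ∈ K` maps
`e_j + e_{j+1}` to `e_{j+1} + e_{j+2}` ([CONJ]); [Q2-ROT].
-/

set_option autoImplicit false

namespace Cfsg.Agent.Lib.Helper37.SUG

open Matrix Cfsg.Agent.Lib.Helper60.SUG Cfsg.Agent.Lib.Helper6.SUG

universe u

/-- The cyclic shift maps `e_j` to `e_{j+1}`. -/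
theorem isCyc_mulVec_single {F : Type u} [Field F] {n : ℕ} (c : ↥(Cfsg.SU n F 2))
    (hc : IsCyc c) (j : Fin n) :
    mat c *ᵥ (Pi.single j (1 : F)) = Pi.single (finRotate n j) (1 : F) := by
  funext k
  obtain ⟨i, rfl⟩ := (finRotate n).surjective k
  rw [hc]
  by_cases h : i = j
  · subst h
    simp
  · have h' : finRotate n i ≠ finRotate n j := fun e => h ((finRotate n).injective e)
    simp [h]

theorem pkgQ2Adj : Cfsg.Agent.Lib.Helper6.SUG.PkgQ2Adj.{u} := by
  intro hConj hRot F _ _ hF n hn K hcyc hE4
  obtain ⟨c, hcK, hc⟩ := hcyc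
  have h4 : (4 : F) = 0 := by
    have := FiniteField.cast_card_eq_zero F
    rw [hF] at this
    norm_num at this
    exact this
  have h2 : (2 : F) = 0 := by
    have h22 : (2 : F) ^ 2 = 0 := by rw [← h4]; norm_num
    exact pow_eq_zero_iff (two_ne_zero) |>.mp h22
  refine hRot n {j | Ctr K (Pi.single j (1 : F) + Pi.single (finRotate n j) (1 : F))} ?_ ?_
  · intro j hj
    have := hConj hF K _ hj c hcK
    rw [Matrix.mulVec_add, isCyc_mulVec_single c hc, isCyc_mulVec_single c hc] at this
    exact this
  · have h2n : 2 < n := by omega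
    have h3n : 3 < n := by omega
    obtain ⟨a, ha⟩ : ∃ a : Fin n, (a : ℕ) = 2 := ⟨⟨2, h2n⟩, rfl⟩
    obtain ⟨b, hb⟩ : ∃ b : Fin n, (b : ℕ) = 3 := ⟨⟨3, h3n⟩, rfl⟩
    have hrot : finRotate n a = b := by
      obtain ⟨m, rfl⟩ : ∃ m, n = m + 1 := ⟨n - 1, by omega⟩
      have h := finRotate_of_lt (n := m) (k := 2) (by omega)
      have ha' : a = ⟨2, by omega⟩ := Fin.ext ha
      have hb' : b = ⟨3, by omega⟩ := Fin.ext hb
      rw [ha', hb']
      exact h
    have hab : a ≠ b := by
      intro h
      have := congrArg Fin.val h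
      omega
    refine ⟨a, ?_⟩
    show Ctr K (Pi.single a (1 : F) + Pi.single (finRotate n a) (1 : F))
    rw [hrot]
    apply hE4
    · intro h
      have := congrFun h a
      simp [Pi.single_apply, hab] at this
    · unfold Cfsg.hermForm
      have hterm : ∀ i : Fin n,
          ((Pi.single a (1 : F) + Pi.single b (1 : F) : Fin n → F) i) *
            ((Pi.single a (1 : F) + Pi.single b (1 : F) : Fin n → F) i) ^ 2
          = (if i = a then (1 : F) else 0) + (if i = b then (1 : F) else 0) := by
        intro i
        by_cases h2' : i = a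
        · rw [h2']
          simp [Pi.single_apply, hab]
        · by_cases h3' : i = b
          · rw [h3']
            simp [Pi.single_apply, hab.symm]
          · simp [Pi.single_apply, h2', h3']
      rw [Finset.sum_congr rfl (fun i _ => hterm i), Finset.sum_add_distrib,
        Finset.sum_ite_eq', Finset.sum_ite_eq']
      simp only [Finset.mem_univ, if_true]
      linear_combination h2
    · intro i hi
      have hi2 : i ≠ a := by
        intro h
        rw [h] at hi
        omega
      have hi3 : i ≠ b := by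
        intro h
        rw [h] at hi
        omega
      simp [Pi.single_apply, hi2, hi3]

end Cfsg.Agent.Lib.Helper37.SUG
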