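-- Team project SUG (S2412), block [Q2]: package [Q2-E4] (helper37).
import Mathlib
import Cfsg.Agent.Lib.Helper6.SUG.Q2Defs

/-!
# S2412 (SUG), block [Q2]: every non-zero isotropic vector of `E_4` is a centre

`v = u + u'` with `u`, `u'` weight-4 vectors of `E_4`: at a chosen non-zero coordinate `i0` of
`v` put `ω v`, `ω² v`; at the other non-zero coordinates `ω² v`, `ω v`; at the zero coordinates
`< 4` put `1`, `1`.  Then `h(u, u') = 4 + (ω + 1) h(v, v) + ω² + ω = 1`.
-/

set_option autoImplicit false

namespace Cfsg.Agent.Lib.Helper37.SUG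

open Matrix Cfsg.Agent.Lib.Helper60.SUG Cfsg.Agent.Lib.Helper6.SUG

universe u

theorem sum_lt_four {F : Type u} [Field F] (n : ℕ) (hn : 4 ≤ n) :
    (∑ m : Fin n, (if (m : ℕ) < 4 then (1 : F) else 0)) = 4 := by
  rw [Finset.sum_boole, Fin.card_filter_val_lt, Nat.min_eq_right hn]
  norm_num

theorem pkgQ2E4 : Cfsg.Agent.Lib.Helper6.SUG.PkgQ2E4.{u} := by
  intro hLine F _ _ hF n hn K ω hω1 hω3 hW v hv0 hvv hsupp
  have h4 : (4 : F) = 0 := by
    have := FiniteField.cast_card_eq_zero F
    rw [hF] at this
    norm_num at this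
    exact this
  have h2 : (2 : F) = 0 := by
    have h22 : (2 : F) ^ 2 = 0 := by rw [← h4]; norm_num
    exact pow_eq_zero_iff (two_ne_zero) |>.mp h22
  have hω0 : ω ≠ 0 := by
    intro h
    rw [h] at hω3
    norm_num at hω3
  have hω : ω ^ 2 + ω + 1 = 0 := by
    have h1 : (ω - 1) * (ω ^ 2 + ω + 1) = 0 := by linear_combination hω3
    rcases mul_eq_zero.mp h1 with h | h
    · exact absurd (sub_eq_zero.mp h) hω1
    · exact h
  have hx3 : ∀ x : F, x ≠ 0 → x ^ 3 = 1 := by
    intro x hx
    have := FiniteField.pow_card_sub_one_eq_one x hx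
    rw [hF] at this
    norm_num at this
    exact this
  obtain ⟨i0, hi0⟩ : ∃ i, v i ≠ 0 := by
    by_contra h
    exact hv0 (funext fun i => by_contra fun hi => h ⟨i, hi⟩)
  have hi04 : (i0 : ℕ) < 4 := by
    by_contra h
    exact hi0 (hsupp i0 (not_lt.mp h))
  classical
  set u : Fin n → F := fun m => if (m : ℕ) < 4 then
    (if m = i0 then ω * v m else if v m = 0 then 1 else ω ^ 2 * v m) else 0 with hu
  set u' : Fin n → F := fun m => if (m : ℕ) < 4 then
    (if m = i0 then ω ^ 2 * v m else if v m = 0 then 1 else ω * v m) else 0 with hu'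
  have hsum : (1 : F) • u + (1 : F) • u' = v := by
    funext m
    simp only [Pi.add_apply, Pi.smul_apply, smul_eq_mul, one_mul, hu, hu']
    by_cases hm4 : (m : ℕ) < 4
    · by_cases hm : m = i0
      · simp only [hm, hi04, if_true]
        linear_combination (v i0) * hω - (v i0) * h2
      · by_cases hvm : v m = 0
        · simp only [hm4, hm, hvm, if_true, if_false]
          linear_combination h2
        · simp only [hm4, hm, hvm, if_true, if_false]
          linear_combination (v m) * hω - (v m) * h2
    · simp only [hm4, if_false, add_zero]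
      exact (hsupp m (not_lt.mp hm4)).symm
  have hCu : Ctr K u := by
    refine hW u (fun i hi => ?_) (fun k hk => ?_)
    · simp only [hu, not_lt.mpr hi, if_false]
    · simp only [hu, hk, if_true]
      by_cases hm : k = i0
      · simp only [hm, if_true]
        exact mul_ne_zero hω0 hi0
      · by_cases hvm : v k = 0
        · simp only [hm, hvm, if_true, if_false]
          exact one_ne_zero
        · simp only [hm, hvm, if_false]
          exact mul_ne_zero (pow_ne_zero 2 hω0) hvm
  have hCu' : Ctr K u' := by
    refine hW u' (fun i hi => ?_) (fun k hk => ?_)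
    · simp only [hu', not_lt.mpr hi, if_false]
    · simp only [hu', hk, if_true]
      by_cases hm : k = i0
      · simp only [hm, if_true]
        exact mul_ne_zero (pow_ne_zero 2 hω0) hi0
      · by_cases hvm : v k = 0
        · simp only [hm, hvm, if_true, if_false]
          exact one_ne_zero
        · simp only [hm, hvm, if_false]
          exact mul_ne_zero hω0 hvm
  have hterm : ∀ m : Fin n, u m * u' m ^ 2 =
      (if (m : ℕ) < 4 then (1 : F) else 0) + (ω + 1) * (v m * v m ^ 2) +
        (if m = i0 then ω ^ 2 + ω else 0) := by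
    intro m
    simp only [hu, hu']
    by_cases hm4 : (m : ℕ) < 4
    · by_cases hm : m = i0
      · have hv3 := hx3 (v i0) hi0
        simp only [hm, hi04, if_true]
        linear_combination (ω ^ 5 - ω - 1) * hv3 + ω ^ 2 * hω3 - (ω + 1) * h2
      · by_cases hvm : v m = 0
        · simp only [hm4, hm, hvm, if_true, if_false]
          ring
        · have hv3 := hx3 (v m) hvm
          simp only [hm4, hm, hvm, if_true, if_false]
          linear_combination (ω ^ 4 - ω - 1) * hv3 + ω * hω3 - h2
    · have hm : m ≠ i0 := by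
        rintro rfl
        exact hm4 hi04
      simp only [hm4, hm, if_false, hsupp m (not_lt.mp hm4)]
      ring
  have hh : Cfsg.hermForm n F 2 u u' = 1 := by
    unfold Cfsg.hermForm
    rw [Finset.sum_congr rfl (fun m _ => hterm m), Finset.sum_add_distrib,
      Finset.sum_add_distrib, sum_lt_four n hn, ← Finset.mul_sum,
      Finset.sum_ite_eq' Finset.univ i0 (fun _ => ω ^ 2 + ω)]
    have hvv' : ∑ i, v i * v i ^ 2 = 0 := hvv
    rw [hvv']
    simp only [Finset.mem_univ, if_true]
    linear_combination h4 + hω - h2
  have key := hLine hF K u u' hCu hCu' (by rw [hh]; exact one_ne_zero) 1 1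
    (by rw [hsum]; exact hv0) (by rw [hsum]; exact hvv)
  rwa [hsum] at key

end Cfsg.Agent.Lib.Helper37.SUG
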